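import Cfsg.Agent.Lib.Helper3.L37.Main
import Cfsg.Agent.Lib.Helper3.MatL2

set_option autoImplicit false
set_option maxRecDepth 100000

namespace Cfsg.Agent.Lib.Helper3.L37

open Cfsg.Agent.Lib.Helper11 Cfsg.Agent.Lib.Helper3 Matrix

set_option maxHeartbeats 0
set_option Elab.async false

instance fact7 : Fact (Nat.Prime 7) := ⟨by norm_num⟩

def AL : List (List (ZMod 7)) := [[6, 3, 1], [6, 6, 4], [3, 1, 2]]
def BL : List (List (ZMod 7)) := [[4, 6, 3], [1, 3, 1], [1, 2, 1]]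
def frInvL : List (List (ZMod 7)) := [[2, 6, 0], [2, 3, 5], [4, 5, 2]]
def frAL : List (ZMod 7) := [1, 1, 6]
def frBL : List ℕ := [15, 19, 6]
def frI : Fin 57 := 0
def PT : ℕ := 0x1a10cda4a38898e04b35114c8590e970821a2d964ac6031910824c271acd8492014cc20819134a84639908a215241c4d049109d8a06e32948c4693a9a43c58289
def CS1 : ℕ := 0x3372553273cccb5d8acc9e64c39eb5332644caa6394
def CS2 : ℕ := 0x42ab663d495a3b16cd9474b1e5ad56a7514f4323272
def IMG1 : ℕ := 0x2e50e5670c2945361dd36701a91e41228e6e1dd9e6cc8125b2b2b06d5d03da01f2cabdc273d28ab1218d51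
def IMG2 : ℕ := 0x1bdd991fc5c021b0626f3de9b594a2c10e0415e23a47d0eda7102333c8520db6ec2261dad14da597a92a14
def pt (i : ℕ) : List (ZMod 7) := ptOf (fun x => (x : ZMod 7)) PT 3 3 i
def witJ : Fin 3 := 0
def witK : Fin 3 := 0

theorem chk1 : genChkW [AL] pt (fun i => ((tb CS1 3 i : ℕ) : ZMod 7)) (tb IMG1 6) ntl 1 57 := by
  decide +kernel
theorem chk2 : genChkW [BL] pt (fun i => ((tb CS2 3 i : ℕ) : ZMod 7)) (tb IMG2 6) ntl 2 57 := by
  decide +kernel

end Cfsg.Agent.Lib.Helper3.L37
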