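import Cfsg.Agent.Lib.Helper3.L37.Iso
import Cfsg.Agent.Lib.Helper3.L37.OND
import Cfsg.Agent.S1692
import Cfsg.Agent.S1699

set_option autoImplicit false
set_option maxRecDepth 100000

namespace Cfsg.Agent.Lib.Helper3.L37

open Cfsg.Agent.Lib.Helper11 Cfsg.Agent.Lib.Helper3 Cfsg.Spor Cfsg.Spor.ON

set_option maxHeartbeats 0

/-- the presentation map -/
noncomputable abbrev mkON : FreeGroup Gen →* Cfsg.Spor.ON :=
  PresentedGroup.mk (coxRelators edges ∪ {r | r ∈ extra})

/-- the subgroup `L3(7):2` -/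
noncomputable abbrev HH : Subgroup Cfsg.Spor.ON :=
  (Subgroup.closure ({a, b, c, d, e, f} : Set (FreeGroup Gen))).map mkON

/-- the generators in the presented group -/
noncomputable def vG (l : ℕ) : Cfsg.Spor.ON :=
  if l = 1 then mkON (e1.eval (fun l => ONo.LTFm.getD l 1))
  else if l = 2 then mkON (e2.eval (fun l => ONo.LTFm.getD l 1)) else 1

theorem cardH : Nat.card HH = 2 * 1876896 := by
  have h1 := Cfsg.Agent.S1692.result
  have h2 := Cfsg.Agent.S1699.result.2
  have h3 := HH.card_mul_index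
  rw [h2] at h3
  have h4 : HH.index = 122760 := h1
  rw [h4] at h3
  exact Nat.eq_of_mul_eq_mul_right (by norm_num : 0 < 122760) (h3.trans (by norm_num))

theorem memL (x : FreeGroup Gen) (hx : x ∈ ({a, b, c, d, e, f} : Set (FreeGroup Gen))) :
    mkON x ∈ HH := Subgroup.mem_map_of_mem _ (Subgroup.subset_closure hx)

/-- the graph -/
noncomputable abbrev SS : Subgroup (Cfsg.Spor.ON × Equiv.Perm (Fin 57)) :=
  blkGraph ONo.psi (fun i : Fin 6384 => 116376 + (i : ℕ))
    (fun i : Fin 6384 => (⟨tb BLK 6 i, blOK i i.2⟩ : Fin 57))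

theorem hfun (σ : Equiv.Perm (Fin 57)) (h : ((1 : Cfsg.Spor.ON), σ) ∈ SS) : σ = 1 := by
  apply blkGraph_fun _ _ _ (add_inj _ _) _ σ h
  intro b
  obtain ⟨i, hi, hb⟩ := blSurj b b.2
  exact ⟨⟨i, hi⟩, Fin.ext hb⟩

theorem main : ∃ K : Subgroup HH, K.Normal ∧ K.index = 2 ∧
    Nonempty (K ≃* lgrp (vL ntl deg) [1, 2]) := by
  have hv1 : vG 1 = mkON (e1.eval (fun l => ONo.LTFm.getD l 1)) := by simp [vG]
  have hv2 : vG 2 = mkON (e2.eval (fun l => ONo.LTFm.getD l 1)) := by simp [vG]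
  have h3 : mkON (ONo.LTFm.getD 3 1) ∈ HH := memL a (by simp)
  have h4 : mkON (ONo.LTFm.getD 4 1) ∈ HH := memL b (by simp)
  have h5 : mkON (ONo.LTFm.getD 5 1) ∈ HH := memL c (by simp)
  have h6 : mkON (ONo.LTFm.getD 6 1) ∈ HH := memL d (by simp)
  have h7 : mkON (ONo.LTFm.getD 7 1) ∈ HH := memL e (by simp)
  have h8 : mkON (ONo.LTFm.getD 8 1) ∈ HH := memL f (by simp)
  have hok := ntOf_ok ONo.ntl _ ONo.netsOK
  refine index_two_of_graph SS hfun vG (vL ntl deg) [1, 2] ?_ HH ?_ 1876896 (by norm_num) card_eq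
    cardH (mkON ((WExp.l 3).eval (fun l => ONo.LTFm.getD l 1))) h3 ?_
  · intro x hx
    simp only [List.mem_cons, List.mem_nil_iff, or_false] at hx
    rcases hx with rfl | rfl
    · rw [hv1]
      exact mem_blkGraph_of_masks ONo.psi (ntOf ONo.ntl) 17 hok _ _ (ONo.psi_eval e1) MSa hMSa
        116376 6384 57 (by norm_num) _ blOK _ _
        (fun b => setup.vL_eq_imgOf (by norm_num [deg]) 1 msa hmsa b) bchk1
    · rw [hv2]
      exact mem_blkGraph_of_masks ONo.psi (ntOf ONo.ntl) 17 hok _ _ (ONo.psi_eval e2) MSb hMSb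
        116376 6384 57 (by norm_num) _ blOK _ _
        (fun b => setup.vL_eq_imgOf (by norm_num [deg]) 2 msb hmsb b) bchk2
  · intro x hx
    simp only [List.mem_cons, List.mem_nil_iff, or_false] at hx
    rcases hx with rfl | rfl
    · rw [hv1]
      simp only [e1, WExp.eval, map_mul]
      repeat' apply Subgroup.mul_mem
      all_goals assumption
    · rw [hv2]
      simp only [e2, WExp.eval, map_mul]
      repeat' apply Subgroup.mul_mem
      all_goals assumption
  · intro σ _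
    apply not_mem_blkGraph _ _ _ (add_inj _ _) _ vi1 vi2 vj1 vj2
    · rw [ONo.psi_eval]
      exact mapChk_spec _ _ hok _ _ _ viol1
    · rw [ONo.psi_eval]
      exact mapChk_spec _ _ hok _ _ _ viol2
    · decide +kernel
    · decide +kernel

end Cfsg.Agent.Lib.Helper3.L37
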